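import Mathlib
import Cfsg.Agent.Lib.Helper1.TICount

set_option autoImplicit false

namespace Cfsg.Agent.Lib.Helper1

open Pointwise

/-- Nonidentity elements of the smaller of two TI-subgroups lie in conjugates of the bigger. -/
theorem ti_mem_conj_of_card_le {G : Type*} [Group G] [Finite G] (H H₀ : Subgroup G)
    (hTI : IsTI H) (hTI₀ : IsTI H₀) (hle : Nat.card H₀ ≤ Nat.card H)
    (x : G) (hx : x ∈ H₀) (hx1 : x ≠ 1) : ∃ g : G, x ∈ MulAut.conj g • H := by
  by_contra hcon
  push Not at hcon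
  set S : Set G := Cfsg.frobeniusKernel H \ {1} with hS
  have hSinv : ∀ g x : G, x ∈ S → g * x * g⁻¹ ∈ S := by
    intro g y hy
    obtain ⟨hy1, hy2⟩ := hy
    refine ⟨?_, ?_⟩
    · rcases hy1 with h | h
      · exact absurd h hy2
      · right
        intro a ha
        apply h (g⁻¹ * a)
        rw [mem_conj_smul] at ha ⊢
        convert ha using 1
        group
    · intro h
      apply hy2
      have h' : g * y * g⁻¹ = 1 := h
      have h'' : y = 1 := by
        have := congrArg (fun t => g⁻¹ * t * g) h'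
        simpa [mul_assoc] using this
      exact h''
  have h1 := ti_ncard_inter H₀ hTI₀ S hSinv
  have h2 : (conjUnion H₀ ∩ S).ncard ≤ S.ncard :=
    Set.ncard_le_ncard Set.inter_subset_right (Set.toFinite _)
  have h3 : S.ncard = H.index - 1 := by
    rw [hS, Set.ncard_sdiff_singleton_of_mem (show (1 : G) ∈ Cfsg.frobeniusKernel H from Or.inl rfl),
      ← Nat.card_coe_set_eq, ti_card_kernel H hTI]
  have h4 : H.index ≤ H₀.index := by
    have e1 := Subgroup.card_mul_index H
    have e2 := Subgroup.card_mul_index H₀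
    by_contra hlt
    push Not at hlt
    have : Nat.card H₀ * H₀.index < Nat.card H * H.index := by
      calc Nat.card H₀ * H₀.index ≤ Nat.card H * H₀.index := Nat.mul_le_mul_right _ hle
        _ < Nat.card H * H.index := Nat.mul_lt_mul_of_pos_left hlt Nat.card_pos
    omega
  have h5 : 0 < Nat.card {h : H₀ // h ≠ 1 ∧ (h : G) ∈ S} := by
    have : Nonempty {h : H₀ // h ≠ 1 ∧ (h : G) ∈ S} :=
      ⟨⟨⟨x, hx⟩, by simpa [Subtype.ext_iff] using hx1, Or.inr hcon, hx1⟩⟩
    exact Nat.card_pos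
  have hpos : 0 < H.index := Nat.pos_of_ne_zero Subgroup.index_ne_zero_of_finite
  have h6 : H₀.index ≤ H₀.index * Nat.card {h : H₀ // h ≠ 1 ∧ (h : G) ∈ S} :=
    Nat.le_mul_of_pos_right _ h5
  omega

/-- A finite nontrivial group whose nonidentity elements are covered by a family of TI-subgroups,
any two of which have conjugacy-disjoint or conjugacy-equal nonidentity parts, is one of them. -/
theorem exists_eq_top_of_ti_family {K : Type*} [Group K] [Finite K] {ι : Type*}
    (D : ι → Subgroup K) (hTI : ∀ i, IsTI (D i))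
    (hcov : ∀ x : K, x ≠ 1 → ∃ i, x ∈ D i)
    (hc : ∀ i j (z : K), z ≠ 1 → z ∈ conjUnion (D i) → z ∈ conjUnion (D j) →
      ∀ y ∈ D j, y ≠ 1 → y ∈ conjUnion (D i))
    (hK : ∃ x : K, x ≠ 1) : ∃ i, D i = ⊤ := by
  by_contra hne
  push Not at hne
  obtain ⟨x, hx⟩ := hK
  obtain ⟨i, hxi⟩ := hcov x hx
  have hcompl := Set.ncard_add_ncard_compl ({1} : Set K)
  rw [Set.ncard_singleton] at hcompl
  have key : ∀ i, D i ≠ ⊥ → Nat.card K ≤ 2 * (conjUnion (D i)).ncard ∧
      (conjUnion (D i)).ncard + 2 ≤ Nat.card K := by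
    intro i hi
    have h1 := ti_ncard (D i) (hTI i)
    have h2 := Subgroup.card_mul_index (D i)
    have h3 : 2 ≤ Nat.card (D i) := (Subgroup.one_lt_card_iff_ne_bot _).mpr hi
    have h4 : 2 ≤ (D i).index := by
      have h0 := Subgroup.index_ne_zero_of_finite (H := D i)
      have h1 : (D i).index ≠ 1 := fun h => hne i (Subgroup.index_eq_one.mp h)
      omega
    obtain ⟨d, hd⟩ : ∃ d, Nat.card (D i) = d + 2 := ⟨Nat.card (D i) - 2, by omega⟩
    obtain ⟨m, hm⟩ : ∃ m, (D i).index = m + 2 := ⟨(D i).index - 2, by omega⟩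
    rw [h1, ← h2, hd, hm]
    have e : d + 2 - 1 = d + 1 := by omega
    rw [e]
    constructor
    · nlinarith
    · nlinarith
  have hi : D i ≠ ⊥ := by
    intro h
    rw [h, Subgroup.mem_bot] at hxi
    exact hx hxi
  obtain ⟨k1, k2⟩ := key i hi
  have hy : ∃ y : K, y ≠ 1 ∧ y ∉ conjUnion (D i) := by
    by_contra hall
    push Not at hall
    have hsub : ({1}ᶜ : Set K) ⊆ conjUnion (D i) := fun y hy => hall y hy
    have := Set.ncard_le_ncard hsub (Set.toFinite _)
    omega
  obtain ⟨y, hy1, hy2⟩ := hy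
  obtain ⟨j, hyj⟩ := hcov y hy1
  have hj : D j ≠ ⊥ := by
    intro h
    rw [h, Subgroup.mem_bot] at hyj
    exact hy1 hyj
  obtain ⟨k3, k4⟩ := key j hj
  have hdisj : Disjoint (conjUnion (D i)) (conjUnion (D j)) := by
    rw [Set.disjoint_left]
    intro z hz1 hz2
    exact hy2 (hc i j z hz1.1 hz1 hz2 y hyj hy1)
  have hunion : (conjUnion (D i) ∪ conjUnion (D j)) ⊆ ({1}ᶜ : Set K) := by
    intro z hz
    rcases hz with h | h <;> exact h.1
  have hle := Set.ncard_le_ncard hunion (Set.toFinite _)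
  rw [Set.ncard_union_eq hdisj (Set.toFinite _) (Set.toFinite _)] at hle
  omega

/-- Of two TI-subgroups, the smaller (nontrivial) one is conjugate into the bigger. -/
theorem ti_le_conj_of_card_le {G : Type*} [Group G] [Finite G] (H H₀ : Subgroup G)
    (hTI : IsTI H) (hTI₀ : IsTI H₀) (hne : H₀ ≠ ⊥) (hle : Nat.card H₀ ≤ Nat.card H) :
    ∃ g : G, MulAut.conj g • H₀ ≤ H := by
  have hmem (g : G) (a z : H₀) :
      z ∈ MulAut.conj a • (MulAut.conj g • H).subgroupOf H₀ ↔
        (a * g : G)⁻¹ * z * (a * g) ∈ H := by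
    rw [mem_conj_smul, Subgroup.mem_subgroupOf, mem_conj_smul]
    simp [mul_assoc]
  suffices hfam : ∃ g : G, (MulAut.conj g • H).subgroupOf H₀ = ⊤ by
    obtain ⟨g, hg⟩ := hfam
    refine ⟨g⁻¹, ?_⟩
    intro z hz
    rw [mem_conj_smul] at hz
    have h1 : (⟨_, hz⟩ : H₀) ∈ (MulAut.conj g • H).subgroupOf H₀ := by
      rw [hg]; trivial
    rw [Subgroup.mem_subgroupOf, mem_conj_smul] at h1
    simpa [mul_assoc] using h1
  refine exists_eq_top_of_ti_family (K := H₀)
    (fun g : G => (MulAut.conj g • H).subgroupOf H₀) ?_ ?_ ?_ ?_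
  · intro g a ha
    rw [eq_bot_iff]
    intro z hz
    obtain ⟨hz1, hz2⟩ := Subgroup.mem_inf.mp hz
    rw [Subgroup.mem_bot]
    by_contra hz_ne
    rw [hmem] at hz2
    rw [Subgroup.mem_subgroupOf] at hz1 ha
    have hz2' : (z : G) ∈ MulAut.conj (a * g : G) • H := by
      rw [mem_conj_smul]; exact hz2
    have h1 := hTI.inv_mul_mem (x := (z : G)) (fun h => hz_ne (Subtype.ext h)) hz1 hz2'
    apply ha
    rw [mem_conj_smul]
    convert h1 using 1
    group
  · intro x hx
    obtain ⟨g, hg⟩ := ti_mem_conj_of_card_le H H₀ hTI hTI₀ hle x x.2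
      (fun h => hx (Subtype.ext h))
    exact ⟨g, hg⟩
  · intro g₁ g₂ z hz1 hz hz' y hy hy1
    obtain ⟨_, a, ha⟩ := hz
    obtain ⟨_, b, hb⟩ := hz'
    rw [hmem] at ha hb
    refine ⟨hy1, b⁻¹ * a, ?_⟩
    rw [hmem]
    rw [Subgroup.mem_subgroupOf, mem_conj_smul] at hy
    have ha' : (z : G) ∈ MulAut.conj (a * g₁ : G) • H := by
      rw [mem_conj_smul]; exact ha
    have hb' : (z : G) ∈ MulAut.conj (b * g₂ : G) • H := by
      rw [mem_conj_smul]; exact hb
    have ht := hTI.inv_mul_mem (x := (z : G)) (fun h => hz1 (Subtype.ext h)) ha' hb'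
    have h1 := H.mul_mem (H.mul_mem ht hy) (H.inv_mem ht)
    convert h1 using 1
    simp only [Subgroup.coe_mul, Subgroup.coe_inv]
    group
  · obtain ⟨x, hx⟩ := (Subgroup.ne_bot_iff_exists_ne_one).mp hne
    exact ⟨x, hx⟩

end Cfsg.Agent.Lib.Helper1
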