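import Mathlib
import Cfsg.Agent.Lib.Helper1.TICount

set_option autoImplicit false

namespace Cfsg.Agent.Lib.Helper1

open Pointwise

/-- The parametrisation of the nonidentity elements of the conjugates of a TI subgroup. -/
noncomputable def tiMap {G : Type*} [Group G] (H : Subgroup G) :
    (G ⧸ H) × {h : H // h ≠ 1} → G :=
  fun p => p.1.out * (p.2.1 : G) * p.1.out⁻¹

theorem tiMap_injective {G : Type*} [Group G] (H : Subgroup G) (hTI : IsTI H) :
    Function.Injective (tiMap H) := by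
  rintro ⟨q, ⟨h, hh1⟩⟩ ⟨q', ⟨h', hh'1⟩⟩ heq
  have heq' : q.out * (h : G) * q.out⁻¹ = q'.out * (h' : G) * q'.out⁻¹ := heq
  have hhG : (h : G) ≠ 1 := fun hc => hh1 (Subtype.ext hc)
  have hmem : q.out⁻¹ * q'.out ∈ H := by
    apply hTI.mem_of_mem hhG h.2
    rw [mem_conj_smul]
    have e1 : (h : G) = q.out⁻¹ * (q'.out * (h' : G) * q'.out⁻¹) * q.out := by
      rw [← heq']; group
    have e2 : (q.out⁻¹ * q'.out)⁻¹ * (h : G) * (q.out⁻¹ * q'.out) = h' := by
      rw [e1]; group
    rw [e2]; exact h'.2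
  have hq : q = q' := by
    rw [← QuotientGroup.out_eq' q, ← QuotientGroup.out_eq' q']
    exact QuotientGroup.eq.mpr hmem
  subst hq
  have e3 : (h : G) = h' := by
    have : (h : G) = q.out⁻¹ * (q.out * (h : G) * q.out⁻¹) * q.out := by group
    rw [this, heq']; group
  have e4 : h = h' := Subtype.ext e3
  subst e4
  rfl

theorem range_tiMap {G : Type*} [Group G] (H : Subgroup G) :
    Set.range (tiMap H) = conjUnion H := by
  ext x
  constructor
  · rintro ⟨⟨q, ⟨h, hh1⟩⟩, rfl⟩
    have hhG : (h : G) ≠ 1 := fun hc => hh1 (Subtype.ext hc)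
    refine ⟨?_, q.out, ?_⟩
    · intro hc
      apply hhG
      have : (h : G) = q.out⁻¹ * (q.out * (h : G) * q.out⁻¹) * q.out := by group
      rw [this]
      have hc' : q.out * (h : G) * q.out⁻¹ = 1 := hc
      rw [hc']; group
    · rw [mem_conj_smul]
      have : q.out⁻¹ * (q.out * (h : G) * q.out⁻¹) * q.out = h := by group
      change q.out⁻¹ * (q.out * (h : G) * q.out⁻¹) * q.out ∈ H
      rw [this]; exact h.2
  · rintro ⟨hx1, g, hxg⟩
    rw [mem_conj_smul] at hxg
    obtain ⟨h₀, hh₀⟩ := QuotientGroup.mk_out_eq_mul H g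
    have hmem : (h₀ : G)⁻¹ * (g⁻¹ * x * g) * h₀ ∈ H :=
      H.mul_mem (H.mul_mem (H.inv_mem h₀.2) hxg) h₀.2
    have hne : (⟨(h₀ : G)⁻¹ * (g⁻¹ * x * g) * h₀, hmem⟩ : H) ≠ 1 := by
      intro hc
      have hc' : (h₀ : G)⁻¹ * (g⁻¹ * x * g) * h₀ = 1 := congrArg Subtype.val hc
      apply hx1
      have : x = (g * h₀) * ((h₀ : G)⁻¹ * (g⁻¹ * x * g) * h₀) * (g * h₀)⁻¹ := by group
      rw [this, hc']; group
    refine ⟨⟨(QuotientGroup.mk g : G ⧸ H), ⟨⟨_, hmem⟩, hne⟩⟩, ?_⟩
    change (QuotientGroup.mk g : G ⧸ H).out * ((h₀ : G)⁻¹ * (g⁻¹ * x * g) * h₀)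
      * (QuotientGroup.mk g : G ⧸ H).out⁻¹ = x
    rw [hh₀]; group

/-- The trace argument: if a finite group `F` acts on an abelian group `V` with every nonidentity
element acting fixed-point-freely, and `F` has a TI subgroup `D` whose Frobenius kernel is a
nontrivial subgroup `M`, then `V` has exponent dividing the index of `D`. -/
theorem frob_action_pow_eq_one {F V : Type*} [Group F] [Finite F] [CommGroup V]
    (c : F → V →* V) (hc1 : ∀ v, c 1 v = v) (hcm : ∀ f g v, c (f * g) v = c f (c g v))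
    (hfpf : ∀ f : F, f ≠ 1 → ∀ v : V, c f v = v → v = 1)
    (D M : Subgroup F) (hD : D ≠ ⊥) (hTI : IsTI D)
    (hM : (M : Set F) = Cfsg.frobeniusKernel D) (hM1 : M ≠ ⊥)
    (v : V) : v ^ D.index = 1 := by
  classical
  have : Fintype F := Fintype.ofFinite F
  have hsub : ∀ (L : Subgroup F), L ≠ ⊥ → ∀ w : V, ∏ f : L, c (f : F) w = 1 := by
    intro L hL w
    obtain ⟨k, hk⟩ := (Subgroup.ne_bot_iff_exists_ne_one).mp hL
    apply hfpf (k : F) (fun h => hk (Subtype.ext h))
    rw [map_prod]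
    calc ∏ f : L, c (k : F) (c (f : F) w) = ∏ f : L, c ((k * f : L) : F) w := by
          apply Finset.prod_congr rfl
          intro f _
          rw [Subgroup.coe_mul, hcm]
      _ = ∏ f : L, c (f : F) w :=
          Fintype.prod_equiv (Equiv.mulLeft k) _ _ (fun f => rfl)
  have htot : ∏ f : F, c f v = 1 := by
    have h1 := hsub ⊤ (by
      intro h
      apply hD
      rw [eq_bot_iff, ← h]; exact le_top) v
    rw [← h1]
    exact Finset.prod_subtype Finset.univ (fun x => by simp) (fun f => c f v)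
  have hMprod : ∏ f ∈ Finset.univ.filter (· ∈ M), c f v = 1 := by
    rw [← hsub M hM1 v]
    exact Finset.prod_subtype _ (fun x => by simp) (fun f => c f v)
  have hsplit := Finset.prod_filter_mul_prod_filter_not Finset.univ (· ∈ M) (fun f => c f v)
  rw [hMprod, one_mul, htot] at hsplit
  have hcompl : Finset.univ.filter (fun f => ¬ f ∈ M) = Finset.univ.image (tiMap D) := by
    ext x
    simp only [Finset.mem_filter, Finset.mem_univ, true_and, Finset.mem_image]
    have h1 : x ∈ M ↔ x ∈ Cfsg.frobeniusKernel D := by rw [← hM]; rfl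
    rw [h1, frobeniusKernel_eq_compl, Set.mem_compl_iff, not_not, ← range_tiMap D]
    rfl
  rw [hcompl, Finset.prod_image (fun x _ y _ h => tiMap_injective D hTI h)] at hsplit
  have hq : ∀ q : F ⧸ D, ∏ h : {h : D // h ≠ 1}, c (tiMap D (q, h)) v = v⁻¹ := by
    intro q
    have h1 := Fintype.prod_eq_mul_prod_subtype_ne (fun h : D => c (h : F) (c q.out⁻¹ v)) 1
    rw [hsub D hD, Subgroup.coe_one, hc1] at h1
    have h2 : ∏ h : {h : D // h ≠ 1}, c (tiMap D (q, h)) v =
        c q.out (∏ h : {h : D // h ≠ 1}, c (h : F) (c q.out⁻¹ v)) := by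
      rw [map_prod]
      apply Finset.prod_congr rfl
      intro h _
      change c (q.out * (h : F) * q.out⁻¹) v = _
      rw [hcm, hcm]
    have h3 : ∏ h : {h : D // h ≠ 1}, c (h : F) (c q.out⁻¹ v) = (c q.out⁻¹ v)⁻¹ :=
      eq_inv_of_mul_eq_one_right h1.symm
    rw [h2, h3, map_inv, ← hcm, mul_inv_cancel, hc1]
  rw [Fintype.prod_prod_type] at hsplit
  simp only [hq] at hsplit
  rw [Finset.prod_const, Finset.card_univ, ← Nat.card_eq_fintype_card,
    ← Subgroup.index_eq_card] at hsplit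
  rwa [inv_pow, inv_eq_one] at hsplit

end Cfsg.Agent.Lib.Helper1
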