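import Mathlib
import Cfsg.Agent.Lib.Helper1.Tools
import Cfsg.Agent.Lib.Helper1.FrobConj
import Cfsg.Agent.Lib.Helper1.FrobTrace
import Cfsg.Agent.Lib.Lead.Frobenius

set_option autoImplicit false

namespace Cfsg.Agent.Lib.Helper1

open Pointwise
open scoped IsMulCommutative

/-- A subgroup all of whose nonidentity elements lie in conjugates of a TI subgroup lies in
one conjugate. -/
theorem ti_le_conj_of_cover {G : Type*} [Group G] [Finite G] (H K : Subgroup G)
    (hTI : IsTI H) (hcov : ∀ x ∈ K, x ≠ 1 → ∃ g : G, x ∈ MulAut.conj g • H) :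
    ∃ g : G, K ≤ MulAut.conj g • H := by
  by_cases hK : K = ⊥
  · exact ⟨1, by rw [hK]; exact bot_le⟩
  have hmem (g : G) (a z : K) :
      z ∈ MulAut.conj a • (MulAut.conj g • H).subgroupOf K ↔
        (a * g : G)⁻¹ * z * (a * g) ∈ H := by
    rw [mem_conj_smul, Subgroup.mem_subgroupOf, mem_conj_smul]
    simp [mul_assoc]
  suffices hfam : ∃ g : G, (MulAut.conj g • H).subgroupOf K = ⊤ by
    obtain ⟨g, hg⟩ := hfam
    exact ⟨g, Subgroup.subgroupOf_eq_top.mp hg⟩
  refine exists_eq_top_of_ti_family (K := K)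
    (fun g : G => (MulAut.conj g • H).subgroupOf K) ?_ ?_ ?_ ?_
  · intro g a ha
    rw [eq_bot_iff]
    intro z hz
    obtain ⟨hz1, hz2⟩ := Subgroup.mem_inf.mp hz
    rw [Subgroup.mem_bot]
    by_contra hz_ne
    rw [hmem] at hz2
    rw [Subgroup.mem_subgroupOf] at hz1 ha
    have hz2' : (z : G) ∈ MulAut.conj (a * g : G) • H := by
      rw [mem_conj_smul]; exact hz2
    have h1 := hTI.inv_mul_mem (x := (z : G)) (fun h => hz_ne (Subtype.ext h)) hz1 hz2'
    apply ha
    rw [mem_conj_smul]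
    convert h1 using 1
    group
  · intro x hx
    obtain ⟨g, hg⟩ := hcov x x.2 (fun h => hx (Subtype.ext h))
    exact ⟨g, hg⟩
  · intro g₁ g₂ z hz1 hz hz' y hy hy1
    obtain ⟨_, a, ha⟩ := hz
    obtain ⟨_, b, hb⟩ := hz'
    rw [hmem] at ha hb
    refine ⟨hy1, b⁻¹ * a, ?_⟩
    rw [hmem]
    rw [Subgroup.mem_subgroupOf, mem_conj_smul] at hy
    have ha' : (z : G) ∈ MulAut.conj (a * g₁ : G) • H := by
      rw [mem_conj_smul]; exact ha
    have hb' : (z : G) ∈ MulAut.conj (b * g₂ : G) • H := by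
      rw [mem_conj_smul]; exact hb
    have ht := hTI.inv_mul_mem (x := (z : G)) (fun h => hz1 (Subtype.ext h)) ha' hb'
    have h1 := H.mul_mem (H.mul_mem ht hy) (H.inv_mem ht)
    convert h1 using 1
    simp only [Subgroup.coe_mul, Subgroup.coe_inv]
    group
  · obtain ⟨x, hx⟩ := (Subgroup.ne_bot_iff_exists_ne_one).mp hK
    exact ⟨x, hx⟩

/-- A Frobenius complement normalizes a nontrivial abelian subgroup of coprime order. -/
theorem frob_exists_invariant_abelian {G : Type*} [Group G] [Finite G] (H : Subgroup G)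
    (hH : Cfsg.IsFrobeniusComplement H) :
    ∃ V : Subgroup G, V ≠ ⊥ ∧ IsMulCommutative V ∧ H ≤ Subgroup.normalizer (V : Set G) ∧
      (Nat.card V).Coprime (Nat.card H) := by
  obtain ⟨N, hNset, hNn, hNc⟩ := Cfsg.Agent.Lib.Lead.frobenius_kernel_subgroup H hH
  have hTI : IsTI H := hH.2.2
  have hNidx : N.index = Nat.card H := hNc.symm.index_eq_card
  have hNcard : Nat.card N = H.index := hNc.index_eq_card.symm
  have hcop : (Nat.card N).Coprime (Nat.card H) := by
    rw [hNcard]
    have h1 := ti_index_mod H hTI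
    have h2 : H.index ≡ 1 [MOD Nat.card H] := h1
    have h3 := Nat.ModEq.gcd_eq h2
    unfold Nat.Coprime
    rw [h3]
    simp
  have hNne : N ≠ ⊥ := by
    intro h
    apply hH.2.1
    rw [← Subgroup.index_eq_one, ← hNcard, h, Subgroup.card_bot]
  have hcard1 : Nat.card N ≠ 1 := fun h => hNne (Subgroup.card_eq_one.mp h)
  set r := (Nat.card N).minFac with hr
  have hrp : r.Prime := Nat.minFac_prime hcard1
  have hrd : r ∣ Nat.card N := Nat.minFac_dvd _
  have : Fact r.Prime := ⟨hrp⟩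
  obtain ⟨P⟩ : Nonempty (Sylow r N) := inferInstance
  set R : Subgroup G := (P : Subgroup N).map N.subtype with hR
  have hsup : Subgroup.normalizer (R : Set G) ⊔ N = ⊤ := Sylow.normalizer_sup_eq_top P
  have hRN : R ≤ N := by rw [hR]; exact Subgroup.map_subtype_le _
  have hRcard : Nat.card R = Nat.card (P : Subgroup N) :=
    Subgroup.card_map_of_injective N.subtype_injective
  have hRne : R ≠ ⊥ := by
    have h1 : r ∣ Nat.card (P : Subgroup N) := P.dvd_card_of_dvd_card hrd
    intro h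
    rw [h, Subgroup.card_bot] at hRcard
    rw [← hRcard] at h1
    exact hrp.one_lt.ne' (Nat.dvd_one.mp h1)
  have hRp : IsPGroup r R := P.2.map N.subtype
  set L := Subgroup.normalizer (R : Set G) with hL
  have hN'idx : (N.subgroupOf L).index = Nat.card H := by
    change N.relIndex L = _
    rw [← Subgroup.relIndex_sup_right (H := L) (K := N), hsup, Subgroup.relIndex_top_right, hNidx]
  have hN'card : Nat.card (N.subgroupOf L) ∣ Nat.card N := by
    have h1 : Nat.card ((N.subgroupOf L).map L.subtype) = Nat.card (N.subgroupOf L) :=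
      Subgroup.card_map_of_injective L.subtype_injective
    rw [← h1, Subgroup.subgroupOf_map_subtype]
    exact Subgroup.card_dvd_of_le inf_le_left
  have hcop' : (Nat.card (N.subgroupOf L)).Coprime (N.subgroupOf L).index := by
    rw [hN'idx]; exact Nat.Coprime.coprime_dvd_left hN'card hcop
  obtain ⟨H'', hc⟩ := Subgroup.exists_left_complement'_of_coprime hcop'
  set H' : Subgroup G := H''.map L.subtype with hH'
  have hH'card : Nat.card H' = Nat.card H := by
    rw [hH', Subgroup.card_map_of_injective L.subtype_injective, ← hc.index_eq_card, hN'idx]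
  have hH'L : H' ≤ L := Subgroup.map_subtype_le _
  have hH'N : ∀ x ∈ H', x ∈ N → x = 1 := by
    rintro x ⟨y, hy, rfl⟩ hxN
    have h1 : y ∈ H'' ⊓ N.subgroupOf L := Subgroup.mem_inf.mpr ⟨hy, Subgroup.mem_subgroupOf.mpr hxN⟩
    rw [hc.disjoint.eq_bot, Subgroup.mem_bot] at h1
    rw [h1]; rfl
  have hcov : ∀ x ∈ H', x ≠ 1 → ∃ g : G, x ∈ MulAut.conj g • H := by
    intro x hx hx1
    by_contra hcon
    push Not at hcon
    have h1 : x ∈ (N : Set G) := by rw [hNset]; exact Or.inr hcon
    exact hx1 (hH'N x hx h1)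
  obtain ⟨g, hg⟩ := ti_le_conj_of_cover H H' hTI hcov
  have hEq : H' = MulAut.conj g • H :=
    Subgroup.eq_of_le_of_card_ge hg (by rw [card_conj_smul, hH'card])
  set R' : Subgroup G := MulAut.conj g⁻¹ • R with hR'
  have hmemR' : ∀ n, n ∈ R' ↔ g * n * g⁻¹ ∈ R := by
    intro n
    rw [hR', mem_conj_smul, inv_inv]
  have hHnorm : ∀ h ∈ H, ∀ n, n ∈ R' → h * n * h⁻¹ ∈ R' := by
    intro h hh n hn
    have h1 : g * h * g⁻¹ ∈ Subgroup.normalizer (R : Set G) := by
      apply hH'L
      rw [hEq, mem_conj_smul]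
      convert hh using 1
      group
    rw [hmemR'] at hn ⊢
    have h2 := (Subgroup.mem_normalizer_iff.mp h1 (g * n * g⁻¹)).mp hn
    convert h2 using 1
    group
  have hR'card : Nat.card R' = Nat.card R := card_conj_smul R g⁻¹
  have hR'ne : R' ≠ ⊥ := by
    intro h
    apply hRne
    rw [← Subgroup.card_eq_one] at h ⊢
    rwa [hR'card] at h
  have hR'p : IsPGroup r R' := by
    rw [hR']
    exact hRp.map _
  have hnt : Nontrivial R' := R'.nontrivial_iff_ne_bot.mpr hR'ne
  have hcn : Nontrivial (Subgroup.center R') := hR'p.center_nontrivial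
  obtain ⟨z, hz⟩ := exists_ne (1 : Subgroup.center R')
  refine ⟨R' ⊓ Subgroup.centralizer (R' : Set G), ?_, ?_, ?_, ?_⟩
  · intro hbot
    have hzV : ((z : R') : G) ∈ R' ⊓ Subgroup.centralizer (R' : Set G) := by
      refine Subgroup.mem_inf.mpr ⟨(z : R').2, ?_⟩
      rw [Subgroup.mem_centralizer_iff]
      intro y hy
      have h1 := Subgroup.mem_center_iff.mp z.2 ⟨y, hy⟩
      exact congrArg Subtype.val h1
    rw [hbot, Subgroup.mem_bot] at hzV
    apply hz
    apply Subtype.ext
    apply Subtype.ext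
    exact hzV
  · refine ⟨⟨fun a b => ?_⟩⟩
    apply Subtype.ext
    have ha := (Subgroup.mem_inf.mp a.2).2
    have hb := (Subgroup.mem_inf.mp b.2).1
    rw [Subgroup.mem_centralizer_iff] at ha
    exact (ha b hb).symm
  · have hstep : ∀ h ∈ H, ∀ n ∈ R' ⊓ Subgroup.centralizer (R' : Set G),
        h * n * h⁻¹ ∈ R' ⊓ Subgroup.centralizer (R' : Set G) := by
      intro h hh n hn
      obtain ⟨hn1, hn2⟩ := Subgroup.mem_inf.mp hn
      refine Subgroup.mem_inf.mpr ⟨hHnorm h hh n hn1, ?_⟩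
      rw [Subgroup.mem_centralizer_iff] at hn2 ⊢
      intro y hy
      have h1 := hHnorm h⁻¹ (H.inv_mem hh) y hy
      have h2 := hn2 _ h1
      rw [inv_inv] at h2
      calc y * (h * n * h⁻¹) = h * ((h⁻¹ * y * h) * n) * h⁻¹ := by group
        _ = h * (n * (h⁻¹ * y * h)) * h⁻¹ := by rw [h2]
        _ = h * n * h⁻¹ * y := by group
    intro h hh
    rw [Subgroup.mem_normalizer_iff]
    intro n
    constructor
    · exact hstep h hh n
    · intro hn
      have h1 := hstep h⁻¹ (H.inv_mem hh) _ hn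
      convert h1 using 1
      group
  · have h1 : Nat.card (R' ⊓ Subgroup.centralizer (R' : Set G) : Subgroup G) ∣ Nat.card R' :=
      Subgroup.card_dvd_of_le inf_le_left
    have h2 : Nat.card R ∣ Nat.card N := Subgroup.card_dvd_of_le hRN
    rw [hR'card] at h1
    exact Nat.Coprime.coprime_dvd_left (h1.trans h2) hcop

/-- A Frobenius complement contains no proper nontrivial TI subgroup of the ambient group. -/
theorem frob_compl_eq_of_le {G : Type*} [Group G] [Finite G] (H H₁ : Subgroup G)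
    (hH : Cfsg.IsFrobeniusComplement H) (hne : H₁ ≠ ⊥) (hTI₁ : IsTI H₁) (hle : H₁ ≤ H) :
    H₁ = H := by
  by_contra hneq
  obtain ⟨V, hVne, hVc, hVnorm, hVcop⟩ := frob_exists_invariant_abelian H hH
  have hTI : IsTI H := hH.2.2
  set D : Subgroup H := H₁.subgroupOf H with hD
  have hDne : D ≠ ⊥ := by
    intro h
    apply hne
    rw [hD, Subgroup.subgroupOf_eq_bot] at h
    have h1 := h.eq_bot
    rwa [inf_of_le_left hle] at h1
  have hDtop : D ≠ ⊤ := by
    intro h
    rw [hD, Subgroup.subgroupOf_eq_top] at h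
    exact hneq (le_antisymm hle h)
  have hDTI : IsTI D := by
    intro a ha
    rw [eq_bot_iff]
    intro z hz
    obtain ⟨hz1, hz2⟩ := Subgroup.mem_inf.mp hz
    rw [Subgroup.mem_bot]
    rw [mem_conj_smul] at hz2
    rw [hD, Subgroup.mem_subgroupOf] at hz1 hz2 ha
    have h1 := hTI₁ (a : G) ha
    have h2 : (z : G) ∈ H₁ ⊓ MulAut.conj (a : G) • H₁ := by
      refine Subgroup.mem_inf.mpr ⟨hz1, ?_⟩
      rw [mem_conj_smul]
      simpa using hz2
    rw [h1, Subgroup.mem_bot] at h2
    exact Subtype.ext h2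
  obtain ⟨M, hMset, hMn, hMc⟩ :=
    Cfsg.Agent.Lib.Lead.frobenius_kernel_subgroup D ⟨hDne, hDtop, hDTI⟩
  have hMne : M ≠ ⊥ := by
    intro h
    rw [h] at hMc
    exact hDtop (Subgroup.isComplement'_bot_left.mp hMc)
  have hVH : V ⊓ H = ⊥ := (Subgroup.disjoint_of_coprime_natCard hVcop).eq_bot
  have hVc' : IsMulCommutative V := hVc
  let c : H → V →* V := fun h =>
    { toFun := fun v => ⟨(h : G) * v * (h : G)⁻¹,
        (Subgroup.mem_normalizer_iff.mp (hVnorm h.2) v).mp v.2⟩
      map_one' := by ext; simp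
      map_mul' := by intro x y; ext; simp [mul_assoc] }
  have hfix : ∀ f : H, f ≠ 1 → ∀ v : V, c f v = v → v = 1 := by
    intro f hf v hv
    by_contra hv1
    have hvG : (v : G) ≠ 1 := fun h => hv1 (Subtype.ext h)
    have hcomm : (f : G) * v * (f : G)⁻¹ = v := congrArg Subtype.val hv
    have hvH : (v : G) ∉ H := by
      intro h
      have h1 : (v : G) ∈ V ⊓ H := Subgroup.mem_inf.mpr ⟨v.2, h⟩
      rw [hVH, Subgroup.mem_bot] at h1
      exact hvG h1
    have h1 := hTI (v : G) hvH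
    have h2 : (f : G) ∈ H ⊓ MulAut.conj (v : G) • H := by
      refine Subgroup.mem_inf.mpr ⟨f.2, ?_⟩
      rw [mem_conj_smul]
      have e : (f : G) * v = v * f := by
        calc (f : G) * v = ((f : G) * v * (f : G)⁻¹) * f := by group
          _ = v * f := by rw [hcomm]
      have e' : (v : G)⁻¹ * f * v = f := by
        rw [mul_assoc, e]; group
      rw [e']; exact f.2
    rw [h1, Subgroup.mem_bot] at h2
    exact hf (Subtype.ext h2)
  have key := frob_action_pow_eq_one c (fun v => by ext; simp [c])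
    (fun f g v => by ext; simp [c, mul_assoc]) hfix D M hDne hDTI hMset hMne
  apply hVne
  rw [eq_bot_iff]
  intro x hx
  rw [Subgroup.mem_bot]
  have h1 := key ⟨x, hx⟩
  have h2 : orderOf (⟨x, hx⟩ : V) ∣ D.index := orderOf_dvd_of_pow_eq_one h1
  have h3 : orderOf (⟨x, hx⟩ : V) ∣ Nat.card V := orderOf_dvd_natCard _
  have h4 : D.index ∣ Nat.card H := Subgroup.index_dvd_card D
  have h5 : orderOf (⟨x, hx⟩ : V) = 1 := Nat.eq_one_of_dvd_coprimes hVcop h3 (h2.trans h4)
  have h6 := orderOf_eq_one_iff.mp h5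
  exact congrArg Subtype.val h6

/-- Frobenius complements of a finite group are conjugate. -/
theorem frob_compl_conj {G : Type*} [Group G] [Finite G] (H H₀ : Subgroup G)
    (hH : Cfsg.IsFrobeniusComplement H) (hH₀ : Cfsg.IsFrobeniusComplement H₀) :
    ∃ g : G, MulAut.conj g • H₀ = H := by
  have hconj_ne : ∀ (K : Subgroup G) (g : G), K ≠ ⊥ → MulAut.conj g • K ≠ ⊥ := by
    intro K g hK h
    apply hK
    rw [← Subgroup.card_eq_one] at h ⊢
    rwa [card_conj_smul] at h
  rcases le_or_gt (Nat.card H₀) (Nat.card H) with hle | hlt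
  · obtain ⟨g, hg⟩ := ti_le_conj_of_card_le H H₀ hH.2.2 hH₀.2.2 hH₀.1 hle
    exact ⟨g, frob_compl_eq_of_le H _ hH (hconj_ne _ _ hH₀.1) (IsTI.conj hH₀.2.2 g) hg⟩
  · obtain ⟨g, hg⟩ := ti_le_conj_of_card_le H₀ H hH₀.2.2 hH.2.2 hH.1 hlt.le
    have h1 := frob_compl_eq_of_le H₀ _ hH₀ (hconj_ne _ _ hH.1) (IsTI.conj hH.2.2 g) hg
    refine ⟨g⁻¹, ?_⟩
    rw [← h1, ← mul_smul, ← map_mul, inv_mul_cancel, map_one, one_smul]

end Cfsg.Agent.Lib.Helper1
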